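import Cfsg.Agent.H887.L5.Transport
import Cfsg.Agent.OrdDiv.Table

/-!
# S5923, A7 (helper947): `GT k` is finite and `5⁶` does not divide its order
-/

set_option autoImplicit false
set_option linter.unusedSectionVars false

namespace Cfsg.Agent.H947.L5

open Cfsg.Agent.H865.L5 Cfsg.Agent

theorem card_G3 : Nat.card G3 =
    18830052912953932311099032439972660332140886784940152038522449391826616580150109878711243949982163694448626420940800000 := by
  rw [OrdDiv.table.{0}.e8 (ZMod 3) 3 (ZMod.card 3)]
  decide +kernel

section A
variable {k : Type} [Field k] [CharP k 3] [IsAlgClosed k] [PerfectRing k 3]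

theorem card_GT : Nat.card ↥(GT k) =
    18830052912953932311099032439972660332140886784940152038522449391826616580150109878711243949982163694448626420940800000 := by
  obtain ⟨e⟩ := H887.L5.equiv_GT k
  rw [← Nat.card_congr e.toEquiv, card_G3]

/-- A7 -/
theorem finite_GT : Finite ↥(GT k) := by
  apply Nat.finite_of_card_ne_zero
  rw [card_GT]
  decide +kernel

theorem not_dvd_GT : ¬ 5 ^ 6 ∣ Nat.card ↥(GT k) := by
  rw [card_GT]
  decide +kernel

end A

end Cfsg.Agent.H947.L5
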